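import Cfsg.Agent.TISp.Line
import Cfsg.Agent.Solv.Cores
import Cfsg.Agent.Solv.PGroupNormal
import Cfsg.Agent.S1265

/-!
A TI-subgroup that is maximal abelian normal in its normaliser of characteristic two.
-/

set_option autoImplicit false
set_option linter.unusedSectionVars false

open Cfsg Subgroup Cfsg.Lib.Solv
open scoped commutatorElement Pointwise

namespace Cfsg.Lib.TISp

variable {G : Type*} [Group G] [Finite G] {V : Subgroup G} {a b v w x y z : G}

/-- `O₂(N(U))`. -/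
def Qf (U : Subgroup G) : Subgroup G :=
  (pCore 2 (normalizer (U : Set G))).map (normalizer (U : Set G)).subtype

/-- The centraliser of `U` in `O₂(N(U))`. -/
def Pf (U : Subgroup G) : Subgroup G := Qf U ⊓ centralizer (U : Set G)

theorem Qf_conj (g : G) (U : Subgroup G) : Qf (MulAut.conj g • U) = MulAut.conj g • Qf U := by
  rw [Qf, Qf, conj_smul_map_pCore, conj_smul_normalizer]

theorem Pf_conj (g : G) (U : Subgroup G) : Pf (MulAut.conj g • U) = MulAut.conj g • Pf U := by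
  rw [Pf, Pf, smul_inf, Qf_conj, conj_smul_centralizer]

/-- The hypotheses on `V`. -/
structure Hyp (V : Subgroup G) : Prop where
  comm : ∀ {v w}, v ∈ V → w ∈ V → v * w = w * v
  sq : ∀ {v}, v ∈ V → v * v = 1
  cQ : ∀ {x}, x ∈ normalizer (V : Set G) → x ∈ centralizer (Qf V : Set G) → x ∈ Qf V
  max : ∀ {A}, V ≤ A → A ≤ normalizer (V : Set G) → IsMulCommutative A →
    normalizer (V : Set G) ≤ normalizer (A : Set G) → A = V
  ti : ∀ (g : G) {x}, x ∈ MulAut.conj g • V → x ∈ V → x ≠ 1 → MulAut.conj g • V = V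

theorem Qf_le : Qf V ≤ normalizer (V : Set G) := map_subtype_le _

theorem isPGroup_Qf : IsPGroup 2 (Qf V) := isPGroup_map_pCore 2 _

theorem norm_Qf : normalizer (V : Set G) ≤ normalizer (Qf V : Set G) :=
  le_normalizer.trans (normalizer_le_normalizer_map_pCore 2 _)

theorem norm_Pf : normalizer (V : Set G) ≤ normalizer (Pf V : Set G) :=
  le_normalizer_inf norm_Qf (normalizer_le_normalizer_centralizer V)

theorem Pf_cent (hx : x ∈ Pf V) (hv : v ∈ V) : x * v = v * x := (hx.2 v hv).symm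

theorem isPGroup_of_sq {K L : Subgroup G} (hL : IsPGroup 2 L) (h : ∀ x ∈ K, x * x ∈ L) :
    IsPGroup 2 K := PG.isPGroup_of_forall_mem fun x hx => by
  obtain ⟨k, hk⟩ := PG.exists_pow_prime_pow_eq_one hL (h x hx)
  exact ⟨k + 1, by rw [pow_succ', pow_mul, pow_two, hk]⟩

theorem cm_sq_left (h1 : x * ⁅x, y⁆ = ⁅x, y⁆ * x) (h2 : ⁅x, y⁆ * ⁅x, y⁆ = 1) : ⁅x * x, y⁆ = 1 := by
  rw [commutatorElement_mul_left_eq_conj_mul, h1, mul_inv_cancel_right, h2]

namespace Hyp

variable (h : Hyp V)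
include h

theorem conj (g : G) : Hyp (MulAut.conj g • V) where
  comm := fun hv hw => by
    obtain ⟨v, hv', rfl⟩ := mem_conj_smul_iff_exists.1 hv
    obtain ⟨w, hw', rfl⟩ := mem_conj_smul_iff_exists.1 hw
    rw [conj_mul, conj_mul, h.comm hv' hw']
  sq := fun hv => by
    obtain ⟨v, hv', rfl⟩ := mem_conj_smul_iff_exists.1 hv
    rw [conj_mul, h.sq hv']; simp
  cQ := fun h1 h2 => by
    rw [Qf_conj, ← conj_smul_centralizer, mem_conj_smul] at h2
    rw [← conj_smul_normalizer, mem_conj_smul] at h1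
    rw [Qf_conj, mem_conj_smul]
    exact h.cQ h1 h2
  max := fun {A} h1 h2 h3 h4 => by
    rw [← conj_smul_normalizer] at h2 h4
    rw [eq_comm, conj_smul_eq_iff, eq_comm]
    refine h.max (conj_smul_le_iff_le_conj_inv_smul.1 h1) ?_ ⟨⟨fun a b => Subtype.ext ?_⟩⟩ ?_
    · simpa only [conj_inv_smul_conj_smul] using conj_smul_mono g⁻¹ h2
    · obtain ⟨a, ha⟩ := a
      obtain ⟨b, hb⟩ := b
      obtain ⟨a, ha', rfl⟩ := mem_conj_smul_iff_exists.1 ha
      obtain ⟨b, hb', rfl⟩ := mem_conj_smul_iff_exists.1 hb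
      have : a * b = b * a := congrArg Subtype.val (h3.1.1 ⟨a, ha'⟩ ⟨b, hb'⟩)
      change g⁻¹ * a * g⁻¹⁻¹ * (g⁻¹ * b * g⁻¹⁻¹) = g⁻¹ * b * g⁻¹⁻¹ * (g⁻¹ * a * g⁻¹⁻¹)
      rw [conj_mul, conj_mul, this]
    · rw [← conj_smul_normalizer]
      exact conj_smul_le_iff_le_conj_inv_smul.1 h4
  ti := fun k x h1 h2 h3 => by
    have := h.ti (g⁻¹ * k * g) (x := g⁻¹ * x * g) (by
      rw [← conj_mul_smul, mem_conj_smul] at h1
      rw [mem_conj_smul]
      simpa [mul_assoc] using h1) (mem_conj_smul.1 h2) (by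
        intro e
        exact h3 (by simpa [mul_assoc] using congrArg (fun y => g * y * g⁻¹) e))
    rw [← conj_mul_smul, show k * g = g * (g⁻¹ * k * g) by group, conj_mul_smul, this]

theorem isPGroup : IsPGroup 2 V :=
  PG.isPGroup_of_forall_mem fun _ hx => ⟨1, by rw [pow_one, pow_two, h.sq hx]⟩

theorem le_Pf : V ≤ Pf V :=
  le_inf (le_map_pCore le_normalizer le_rfl h.isPGroup) fun _ hv _ hw => h.comm hw hv

theorem inf_cent {Y : Subgroup G} (h1 : V ≤ Y) (h2 : Y ≤ Pf V)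
    (h3 : normalizer (V : Set G) ≤ normalizer (Y : Set G)) : Y ⊓ centralizer (Y : Set G) = V :=
  h.max (le_inf h1 fun _ hv _ hy => Pf_cent (h2 hy) hv) (inf_le_left.trans (h2.trans
    (inf_le_left.trans Qf_le))) ⟨⟨fun a b => Subtype.ext (b.2.2 a a.2.1)⟩⟩
    (le_normalizer_inf_centralizer h3 h3)

theorem cP (hx : x ∈ normalizer (V : Set G)) (h1 : ∀ y ∈ Pf V, ⁅x, y⁆ = 1) : x ∈ V := by
  let C := normalizer (V : Set G) ⊓ centralizer (Pf V : Set G)
  have hn : normalizer (V : Set G) ≤ normalizer (C : Set G) :=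
    le_normalizer_inf_centralizer le_normalizer norm_Pf
  have key : ∀ c ∈ C, c ∈ Qf V → c ∈ V := fun c hc hq =>
    (h.inf_cent h.le_Pf le_rfl norm_Pf).le ⟨⟨hq, fun v hv => hc.2 v (h.le_Pf hv)⟩, hc.2⟩
  have h2 : IsPGroup 2 C := isPGroup_of_sq (isPGroup_Qf (V := V)) fun c hc =>
    h.cQ (mul_mem hc.1 hc.1) fun y hy => by
      have h3 : ⁅c, y⁆ ∈ V := key _ (cm_mem_left hc (hn (Qf_le hy))) (cm_mem_right (norm_Qf hc.1) hy)
      exact (cm_iff.1 (cm_sq_left (hc.2 _ (h.le_Pf h3)).symm (h.sq h3))).symm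
  have hx' : x ∈ C := ⟨hx, fun y hy => (cm_iff.1 (h1 y hy)).symm⟩
  exact key x hx' (le_map_pCore inf_le_left hn h2 hx')

theorem sqP (hx : x ∈ Pf V) : x * x ∈ V := by
  have hPN : Pf V ≤ normalizer (V : Set G) := inf_le_left.trans Qf_le
  let Y : Subgroup G :=
    { carrier := {y | y ∈ Pf V ∧ ∀ x ∈ Pf V, ⁅y, x⁆ ∈ V}
      one_mem' := ⟨one_mem _, fun x _ => by simp⟩
      mul_mem' := fun ha hb => ⟨mul_mem ha.1 hb.1, fun x hx => by
        rw [commutatorElement_mul_left_eq_conj_mul]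
        exact mul_mem (conj_mem_of_mem_normalizer (hPN ha.1) (hb.2 x hx)) (ha.2 x hx)⟩
      inv_mem' := fun ha => ⟨inv_mem ha.1, fun x hx => by
        rw [commutatorElement_inv_left, ← commutatorElement_inv]
        exact inv_conj_mem_of_mem_normalizer (hPN ha.1) (inv_mem (ha.2 x hx))⟩ }
  have h1 : V ≤ Y := fun v hv => ⟨h.le_Pf hv, fun x hx => cm_mem_left hv (hPN hx)⟩
  have h2 : normalizer (V : Set G) ≤ normalizer (Y : Set G) := fun m hm =>
    mem_normalizer_of_conj_mem fun y hy => ⟨conj_mem_of_mem_normalizer (norm_Pf hm) hy.1,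
      fun x hx => by
        have := conj_mem_of_mem_normalizer hm
          (hy.2 _ (inv_conj_mem_of_mem_normalizer (norm_Pf hm) hx))
        rwa [conjugate_commutatorElement, show m * (m⁻¹ * x * m) * m⁻¹ = x by group] at this⟩
  have h3 := h.inf_cent h1 (fun y hy => hy.1) h2
  have hp : IsPGroup 2 (Pf V) := isPGroup_Qf.to_le inf_le_left
  have h4 : V ≤ Pf V ⊓ centralizer (Y : Set G) := le_inf h.le_Pf (h3.ge.trans inf_le_right)
  have h5 : Pf V ⊓ centralizer (Y : Set G) ≤ V := by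
    by_contra hc
    obtain ⟨d, hd, hd1, -, -, hd2⟩ := PG.exists_step_elt hp (hp.to_le inf_le_left) hPN
      (le_normalizer_inf_centralizer le_normalizer (hPN.trans h2)) (lt_of_le_not_ge h4 hc)
    exact hd1 (h3.le ⟨⟨hd.1, fun x hx => hd2 x (mem_sup_left hx)⟩, hd.2⟩)
  refine h5 ⟨mul_mem hx hx, fun y hy => ?_⟩
  have h6 : ⁅x, y⁆ ∈ V := by
    rw [← commutatorElement_inv]
    exact inv_mem (hy.2 x hx)
  exact (cm_iff.1 (cm_sq_left (Pf_cent hx h6) (h.sq h6))).symm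

theorem cm_mem (hx : x ∈ Pf V) (hy : y ∈ Pf V) : ⁅x, y⁆ ∈ V := by
  have e : ⁅x, y⁆ = x * y * (x * y) * (y⁻¹ * (x * x)⁻¹ * y) * (y * y)⁻¹ := by
    rw [commutatorElement_def]; group
  rw [e]
  exact mul_mem (mul_mem (h.sqP (mul_mem hx hy)) (inv_conj_mem_of_mem_normalizer
    (Qf_le hy.1) (inv_mem (h.sqP hx)))) (inv_mem (h.sqP hy))

theorem sys : Sys {U | ∃ g : G, U = MulAut.conj g • V} Pf where
  sq := by rintro _ ⟨g, rfl⟩; exact (h.conj g).sq
  le := by rintro _ ⟨g, rfl⟩; exact (h.conj g).le_Pf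
  cent := fun _ => Pf_cent
  comm := by rintro _ ⟨g, rfl⟩; exact (h.conj g).cm_mem
  sqP := by rintro _ ⟨g, rfl⟩; exact (h.conj g).sqP
  cP := by rintro _ ⟨g, rfl⟩; exact (h.conj g).cP
  max := by rintro _ ⟨g, rfl⟩; exact (h.conj g).max
  ti := by
    rintro _ _ ⟨g, rfl⟩ ⟨k, rfl⟩ x h1 h2 h3
    have e : MulAut.conj g • V = MulAut.conj (g * k⁻¹) • MulAut.conj k • V := by
      rw [← conj_mul_smul, inv_mul_cancel_right]
    rw [e] at h1 ⊢
    exact (h.conj k).ti _ h1 h2 h3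
  conjS := by rintro _ ⟨g, rfl⟩ k; exact ⟨k * g, (conj_mul_smul k g V).symm⟩
  conjP := fun _ g => Pf_conj g _
  trans := by
    rintro _ _ ⟨g, rfl⟩ ⟨k, rfl⟩
    exact ⟨k * g⁻¹, by rw [← conj_mul_smul, inv_mul_cancel_right]⟩

theorem mem_self : V ∈ {U | ∃ g : G, U = MulAut.conj g • V} := ⟨1, (conj_one_smul V).symm⟩

theorem arr {g : G} (h1 : MulAut.conj g • V ≠ V) (h2 : MulAut.conj g • V ≤ Qf V) :
    Arr {U | ∃ g : G, U = MulAut.conj g • V} Pf V (MulAut.conj g • V) := by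
  have s := h.sys
  have hA : MulAut.conj g • V ∈ {U | ∃ g : G, U = MulAut.conj g • V} := ⟨g, rfl⟩
  refine ⟨s, h.mem_self, hA, h1, le_inf h2 fun a ha v hv => ?_⟩
  generalize MulAut.conj g • V = A at *
  by_cases hv1 : v = 1
  · simp [hv1]
  obtain ⟨b, hb, hb1, e⟩ : ∃ b ∈ A, b ≠ 1 ∧ ⁅v, b⁆ = 1 := by
    by_contra hc
    push Not at hc
    let f : A → V := fun b => ⟨b * v * (b : G)⁻¹, conj_mem_of_mem_normalizer (Qf_le (h2 b.2)) hv⟩
    have hf : Function.Injective f := fun b c hbc => by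
      by_contra hne
      refine hc _ (A.mul_mem (A.inv_mem c.2) b.2) (fun e => hne (Subtype.ext
        (inv_mul_eq_one.1 e).symm)) (cm_iff.2 ?_)
      have : (b : G) * v * (b : G)⁻¹ = c * v * (c : G)⁻¹ := congrArg Subtype.val hbc
      calc v * ((c : G)⁻¹ * b) = (c : G)⁻¹ * (c * v * (c : G)⁻¹) * b := by group
        _ = _ := by rw [← this]; group
    obtain ⟨b, hb⟩ := ((Nat.bijective_iff_injective_and_card f).2
      ⟨hf, s.card_eq hA h.mem_self⟩).2 1
    exact hv1 (conj_eq_one_iff.1 (congrArg Subtype.val hb))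
  exact cm_iff.1 (s.eq_one h.mem_self hA h1.symm (cm_mem_left hv (Qf_le (h2 ha)))
    (cm_mem_right (s.norm_of_comm hA hb hb1 e) ha))

theorem Pf_eq {A : Subgroup G} (k : Arr {U | ∃ g : G, U = MulAut.conj g • V} Pf V A) :
    Pf V = Qf V := by
  refine inf_eq_left.2 fun x hx v hv => ?_
  by_cases hv1 : v = 1
  · simp [hv1]
  obtain ⟨z, hz, hz1, -, hz2⟩ := PG.exists_mem_centralizer_orderOf_eq (isPGroup_Qf (V := V))
    h.isPGroup Qf_le fun e => hv1 (mem_bot.1 (e.le hv))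
  obtain ⟨m, hm, rfl⟩ := k.exists_conj_V hz (fun e => by simp [e] at hz2) hv hv1
  have := hz1 _ (inv_conj_mem_of_mem_normalizer (norm_Qf hm) hx)
  calc m * z * m⁻¹ * x = m * (z * (m⁻¹ * x * m)) * m⁻¹ := by group
    _ = _ := by rw [← this]; group

end Hyp

theorem hyp_of (hV : IsElementaryAbelian 2 V)
    (h1 : (generalizedFittingSubgroup ↥(normalizer (V : Set G))).map
      (normalizer (V : Set G)).subtype = Qf V)
    (h2 : ∀ A : Subgroup G, V ≤ A → A ≤ normalizer (V : Set G) → IsMulCommutative ↥A →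
      (∀ m ∈ normalizer (V : Set G), ∀ a ∈ A, m * a * m⁻¹ ∈ A) → A = V)
    (hti : ∀ x : G, MulAut.conj x • V = V ∨ MulAut.conj x • V ⊓ V = ⊥) : Hyp V where
  comm := fun hv hw => congrArg Subtype.val (hV.1.1.1 ⟨_, hv⟩ ⟨_, hw⟩)
  sq := fun hv => by rw [← pow_two, hV.2 _ hv]
  cQ := fun {x} hx hc => by
    rw [← h1] at hc ⊢
    exact ⟨⟨x, hx⟩, Agent.S1265.result fun y hy => Subtype.ext (hc y ⟨y, hy, rfl⟩), rfl⟩
  max := fun a b c d => h2 _ a b c fun _ hm _ ha => conj_mem_of_mem_normalizer (d hm) ha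
  ti := fun g x a b c => (hti g).resolve_right fun e => c (mem_bot.1 (e.le ⟨a, b⟩))

end Cfsg.Lib.TISp
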