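import Cfsg.Agent.Solv.Conj
import Cfsg.Agent.Local.ProdCard

/-!
A conjugacy class of elementary abelian TI-subgroups `V`, each with a special overgroup `P V`.
-/

set_option autoImplicit false

open Subgroup Cfsg.Lib.Solv
open scoped commutatorElement Pointwise

namespace Cfsg.Lib.TISp

variable {G : Type*} [Group G]

/-- The class `S` of TI-subgroups, with the groups `P U` of centre `U`. -/
structure Sys (S : Set (Subgroup G)) (P : Subgroup G → Subgroup G) : Prop where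
  sq : ∀ {U}, U ∈ S → ∀ {v}, v ∈ U → v * v = 1
  le : ∀ {U}, U ∈ S → U ≤ P U
  cent : ∀ {U}, U ∈ S → ∀ {x v}, x ∈ P U → v ∈ U → x * v = v * x
  comm : ∀ {U}, U ∈ S → ∀ {x y}, x ∈ P U → y ∈ P U → ⁅x, y⁆ ∈ U
  sqP : ∀ {U}, U ∈ S → ∀ {x}, x ∈ P U → x * x ∈ U
  cP : ∀ {U}, U ∈ S → ∀ {x}, x ∈ normalizer (U : Set G) → (∀ y ∈ P U, ⁅x, y⁆ = 1) → x ∈ U
  max : ∀ {U}, U ∈ S → ∀ {A}, U ≤ A → A ≤ normalizer (U : Set G) → IsMulCommutative A →
    normalizer (U : Set G) ≤ normalizer (A : Set G) → A = U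
  ti : ∀ {U U'}, U ∈ S → U' ∈ S → ∀ {x}, x ∈ U → x ∈ U' → x ≠ 1 → U = U'
  conjS : ∀ {U}, U ∈ S → ∀ g : G, MulAut.conj g • U ∈ S
  conjP : ∀ {U}, U ∈ S → ∀ g : G, P (MulAut.conj g • U) = MulAut.conj g • P U
  trans : ∀ {U U'}, U ∈ S → U' ∈ S → ∃ g : G, U' = MulAut.conj g • U

theorem cm_mem_left {H : Subgroup G} {x y : G} (hx : x ∈ H) (hy : y ∈ normalizer (H : Set G)) :
    ⁅x, y⁆ ∈ H := by
  have := H.mul_mem hx (conj_mem_of_mem_normalizer hy (H.inv_mem hx))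
  rwa [commutatorElement_def, mul_assoc, mul_assoc, ← mul_assoc y]

theorem cm_mem_right {H : Subgroup G} {x y : G} (hx : x ∈ normalizer (H : Set G)) (hy : y ∈ H) :
    ⁅x, y⁆ ∈ H := by
  rw [← commutatorElement_inv]
  exact H.inv_mem (cm_mem_left hy hx)

theorem cm_symm {x y : G} (h : ⁅x, y⁆ = 1) : ⁅y, x⁆ = 1 := by
  rw [← commutatorElement_inv, h, inv_one]

theorem cm_iff {x y : G} : ⁅x, y⁆ = 1 ↔ x * y = y * x := commutatorElement_eq_one_iff_mul_comm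

theorem conj_eq_cm (x y : G) : x * y * x⁻¹ = ⁅x, y⁆ * y := by
  rw [commutatorElement_def, inv_mul_cancel_right]

theorem mem_norm_of_cm [Finite G] {U : Subgroup G} {x : G} (h : ∀ v ∈ U, ⁅x, v⁆ = 1) :
    x ∈ normalizer (U : Set G) :=
  mem_normalizer_of_conj_mem fun v hv => by rwa [conj_eq_cm, h v hv, one_mul]

namespace Sys

variable {S : Set (Subgroup G)} {P : Subgroup G → Subgroup G} (h : Sys S P)
  {U V A B : Subgroup G} {a b v w x y z : G}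
include h

theorem inv_eq (hU : U ∈ S) (hv : v ∈ U) : v⁻¹ = v :=
  inv_eq_of_mul_eq_one_right (h.sq hU hv)

theorem eq_one (hU : U ∈ S) (hV : V ∈ S) (hne : U ≠ V) (h1 : x ∈ U) (h2 : x ∈ V) : x = 1 :=
  by_contra fun hx => hne (h.ti hU hV h1 h2 hx)

theorem cm_cent (hU : U ∈ S) (hx : x ∈ P U) (hv : v ∈ U) : ⁅x, v⁆ = 1 :=
  cm_iff.2 (h.cent hU hx hv)

theorem conj_cent (hU : U ∈ S) (hx : x ∈ P U) (hv : v ∈ U) : x * v * x⁻¹ = v := by
  rw [h.cent hU hx hv, mul_inv_cancel_right]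

theorem norm_of_comm (hU : U ∈ S) (ha : a ∈ U) (h1 : a ≠ 1) (e : ⁅x, a⁆ = 1) :
    x ∈ normalizer (U : Set G) := by
  refine mem_normalizer_iff_conj_smul_eq.2 (h.ti (h.conjS hU x) hU ?_ ha h1)
  have := conj_mem_conj_smul x ha
  rwa [conj_eq_cm, e, one_mul] at this

theorem normP (hU : U ∈ S) (hx : x ∈ normalizer (U : Set G)) : x ∈ normalizer (P U : Set G) := by
  rw [mem_normalizer_iff_conj_smul_eq] at hx ⊢
  rw [← h.conjP hU, hx]

theorem card_eq (hU : U ∈ S) (hV : V ∈ S) : Nat.card U = Nat.card V := by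
  obtain ⟨g, rfl⟩ := h.trans hU hV
  exact (card_conj_smul g U).symm

theorem cm_mul_right (hU : U ∈ S) (hx : x ∈ P U) (hy : y ∈ P U) (hz : z ∈ P U) :
    ⁅x, y * z⁆ = ⁅x, y⁆ * ⁅x, z⁆ := by
  rw [commutatorElement_mul_right_eq_mul_conj, mul_assoc, mul_assoc, ← mul_assoc y,
    h.conj_cent hU hy (h.comm hU hx hz)]

theorem cm_mul_left (hU : U ∈ S) (hx : x ∈ P U) (hy : y ∈ P U) (hz : z ∈ P U) :
    ⁅x * y, z⁆ = ⁅x, z⁆ * ⁅y, z⁆ := by
  rw [commutatorElement_mul_left_eq_conj_mul, h.conj_cent hU hx (h.comm hU hy hz)]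
  exact h.cent hU (h.le hU (h.comm hU hy hz)) (h.comm hU hx hz)

theorem cm_swap (hU : U ∈ S) (hx : x ∈ P U) (hy : y ∈ P U) : ⁅x, y⁆ = ⁅y, x⁆ := by
  rw [← commutatorElement_inv, h.inv_eq hU (h.comm hU hy hx)]

theorem cm_inv_left (hU : U ∈ S) (hx : x ∈ P U) (hy : y ∈ P U) : ⁅x⁻¹, y⁆ = ⁅x, y⁆ := by
  have := h.cm_mul_left hU ((P U).inv_mem hx) hx hy
  rw [inv_mul_cancel, commutatorElement_one_left] at this
  rw [eq_inv_of_mul_eq_one_left this.symm, h.inv_eq hU (h.comm hU hx hy)]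

theorem cm_eq_iff (hU : U ∈ S) (hx : x ∈ P U) (hy : y ∈ P U) (hz : z ∈ P U) :
    ⁅x⁻¹ * y, z⁆ = 1 ↔ ⁅x, z⁆ = ⁅y, z⁆ := by
  rw [h.cm_mul_left hU ((P U).inv_mem hx) hy hz, h.cm_inv_left hU hx hz,
    ← h.inv_eq hU (h.comm hU hx hz), inv_mul_eq_one, h.inv_eq hU (h.comm hU hx hz)]

variable [Finite G]

theorem P_le_norm (hU : U ∈ S) (hx : x ∈ P U) : x ∈ normalizer (U : Set G) :=
  mem_norm_of_cm fun _ hv => h.cm_cent hU hx hv

end Sys

/-- `A` is another member of the class inside `P V`. -/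
structure Arr (S : Set (Subgroup G)) (P : Subgroup G → Subgroup G) (V A : Subgroup G) : Prop where
  sys : Sys S P
  hV : V ∈ S
  hA : A ∈ S
  ne : A ≠ V
  le : A ≤ P V

namespace Arr

variable {S : Set (Subgroup G)} {P : Subgroup G → Subgroup G} {V A B : Subgroup G}
  (h : Arr S P V A) {a b v w x y z : G}
include h

theorem eq_one (ha : a ∈ A) (hv : a ∈ V) : a = 1 := h.sys.eq_one h.hA h.hV h.ne ha hv

theorem exists_ne_one : ∃ a ∈ A, a ≠ 1 := by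
  by_contra hc
  push Not at hc
  obtain ⟨g, e⟩ := h.sys.trans h.hA h.hV
  have h1 : A = ⊥ := (eq_bot_iff_forall _).2 hc
  exact h.ne (by rw [e, h1, Subgroup.smul_bot])

theorem exists_ne_one' : ∃ v ∈ V, v ≠ 1 := by
  by_contra hc
  push Not at hc
  obtain ⟨g, e⟩ := h.sys.trans h.hV h.hA
  have h1 : V = ⊥ := (eq_bot_iff_forall _).2 hc
  exact h.ne (by rw [e, h1, Subgroup.smul_bot])

theorem conj (g : G) : Arr S P (MulAut.conj g • V) (MulAut.conj g • A) where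
  sys := h.sys
  hV := h.sys.conjS h.hV g
  hA := h.sys.conjS h.hA g
  ne := fun e => h.ne (smul_left_cancel _ e)
  le := h.sys.conjP h.hV g ▸ conj_smul_mono g h.le

theorem cm_AV (ha : a ∈ A) (hv : v ∈ V) : ⁅a, v⁆ = 1 := h.sys.cm_cent h.hV (h.le ha) hv

theorem cent_of (hx : x ∈ P V) (ha : a ∈ A) (h1 : a ≠ 1) (e : ⁅x, a⁆ = 1) (hb : b ∈ A) :
    ⁅x, b⁆ = 1 :=
  h.eq_one (cm_mem_right (h.sys.norm_of_comm h.hA ha h1 e) hb) (h.sys.comm h.hV hx (h.le hb))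

variable [Finite G]

theorem V_le_norm (hv : v ∈ V) : v ∈ normalizer (A : Set G) :=
  mem_norm_of_cm fun _ ha => cm_symm (h.cm_AV ha hv)

theorem surj (hx : x ∈ P V) (ha : a ∈ A) (e : ⁅x, a⁆ ≠ 1) (hv : v ∈ V) : ∃ b ∈ A, ⁅x, b⁆ = v := by
  let f : A → V := fun b => ⟨⁅x, (b : G)⁆, h.sys.comm h.hV hx (h.le b.2)⟩
  have hf : Function.Injective f := fun b c hbc => by
    by_contra hne
    have h1 : (b : G)⁻¹ * c ≠ 1 := fun e => hne (Subtype.ext (inv_mul_eq_one.1 e))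
    have h2 : ⁅(b : G), x⁆ = ⁅(c : G), x⁆ := by
      rw [h.sys.cm_swap h.hV (h.le b.2) hx, h.sys.cm_swap h.hV (h.le c.2) hx]
      exact congrArg Subtype.val hbc
    exact e (h.cent_of hx (A.mul_mem (A.inv_mem b.2) c.2) h1
      (cm_symm ((h.sys.cm_eq_iff h.hV (h.le b.2) (h.le c.2) hx).2 h2)) ha)
  obtain ⟨b, hb⟩ := ((Nat.bijective_iff_injective_and_card f).2
    ⟨hf, h.sys.card_eq h.hA h.hV⟩).2 ⟨v, hv⟩
  exact ⟨b, b.2, congrArg Subtype.val hb⟩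

end Arr

/-- Two members of the class inside `P V` that do not commute. -/
structure Tri (S : Set (Subgroup G)) (P : Subgroup G → Subgroup G) (V A B : Subgroup G) :
    Prop where
  l : Arr S P V A
  r : Arr S P V B
  ne : ∀ {a b}, a ∈ A → a ≠ 1 → b ∈ B → b ≠ 1 → ⁅b, a⁆ ≠ 1

variable {S : Set (Subgroup G)} {P : Subgroup G → Subgroup G} {V A B : Subgroup G}
  {a b v w x y z : G}

theorem Arr.exists_tri [Finite G] (h : Arr S P V A) : ∃ B, Tri S P V A B := by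
  have key : ∀ m ∈ normalizer (V : Set G), Arr S P V (MulAut.conj m • A) := fun m hm => by
    have := h.conj m
    rwa [conj_smul_eq_of_mem_normalizer hm] at this
  by_cases hc : ∃ m ∈ normalizer (V : Set G), ∃ a ∈ A, ∃ b ∈ MulAut.conj m • A, ⁅b, a⁆ ≠ 1
  · obtain ⟨m, hm, a, ha, b, hb, e⟩ := hc
    refine ⟨_, h, key m hm, fun {a' b'} ha' h1 hb' h2 e' => e ?_⟩
    have h3 := h.cent_of ((key m hm).le hb') ha' h1 e' ha
    exact cm_symm ((key m hm).cent_of (h.le ha) hb' h2 (cm_symm h3) hb)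
  push Not at hc
  let X : Subgroup G := ⨆ m : normalizer (V : Set G), MulAut.conj (m : G) • A
  have hXP : X ≤ P V := iSup_le fun m => (key m m.2).le
  have hX : X ≤ centralizer (X : Set G) := by
    refine iSup_le fun m => le_centralizer_iff.1 (iSup_le fun n => ?_)
    intro x hx y hy
    obtain ⟨a, ha, rfl⟩ := mem_conj_smul_iff_exists.1 hy
    have h1 : (m : G)⁻¹ * x * m ∈ MulAut.conj ((m⁻¹ * n : normalizer (V : Set G)) : G) • A := by
      rw [mem_conj_smul] at hx ⊢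
      simpa [mul_assoc] using hx
    have h2 := cm_iff.1 (hc _ (m⁻¹ * n).2 a ha _ h1)
    have h3 : x = m * ((m : G)⁻¹ * x * m) * (m : G)⁻¹ := by group
    rw [h3]
    generalize (m : G)⁻¹ * x * m = y at h2
    calc (m : G) * a * (m : G)⁻¹ * (m * y * (m : G)⁻¹) = m * (a * y) * (m : G)⁻¹ := by group
      _ = _ := by rw [← h2]; group
  have hN : normalizer (V : Set G) ≤ normalizer (X : Set G) := fun m hm =>
    mem_normalizer_of_conj_mem (conj_smul_le_iff.1 (by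
      rw [conj_smul_iSup]
      refine iSup_le fun n => ?_
      rw [← conj_mul_smul]
      exact le_iSup (fun m : normalizer (V : Set G) => MulAut.conj (m : G) • A) (⟨m, hm⟩ * n)))
  have h1 := h.sys.max h.hV (A := V ⊔ X) le_sup_left
    (sup_le le_normalizer fun x hx => h.sys.P_le_norm h.hV (hXP hx))
    (Local.CD.isMulCommutative_sup ⟨⟨fun a b => Subtype.ext
      (h.sys.cent h.hV (h.sys.le h.hV a.2) b.2)⟩⟩ ⟨⟨fun a b => Subtype.ext (hX b.2 a a.2)⟩⟩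
      fun v hv x hx => h.sys.cent h.hV (hXP hx) hv) (le_normalizer_sup le_rfl hN)
  obtain ⟨a, ha, h2⟩ := h.exists_ne_one
  have h3 : A ≤ X := by
    have := le_iSup (fun m : normalizer (V : Set G) => MulAut.conj (m : G) • A) 1
    rwa [OneMemClass.coe_one, conj_one_smul] at this
  exact absurd (h.eq_one ha (h1 ▸ mem_sup_right (h3 ha))) h2

namespace Tri

variable (h : Tri S P V A B)
include h

theorem symm : Tri S P V B A :=
  ⟨h.r, h.l, fun hb h1 ha h2 e => h.ne ha h2 hb h1 (cm_symm e)⟩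

theorem conj (g : G) :
    Tri S P (MulAut.conj g • V) (MulAut.conj g • A) (MulAut.conj g • B) :=
  ⟨h.l.conj g, h.r.conj g, fun ha h1 hb h2 e => by
    obtain ⟨a, ha', rfl⟩ := mem_conj_smul_iff_exists.1 ha
    obtain ⟨b, hb', rfl⟩ := mem_conj_smul_iff_exists.1 hb
    rw [← conjugate_commutatorElement, conj_eq_one_iff] at e
    exact h.ne ha' (fun e => h1 (by simp [e])) hb' (fun e => h2 (by simp [e])) e⟩

variable [Finite G]

theorem exists_b (ha : a ∈ A) (h1 : a ≠ 1) (hv : v ∈ V) : ∃ b ∈ B, ⁅b, a⁆ = v := by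
  obtain ⟨b, hb, h2⟩ := h.r.exists_ne_one
  obtain ⟨c, hc, e⟩ := h.r.surj (h.l.le ha) hb (fun e => h.ne ha h1 hb h2 (cm_symm e)) hv
  exact ⟨c, hc, by rw [h.l.sys.cm_swap h.l.hV (h.r.le hc) (h.l.le ha), e]⟩

theorem decomp (hx : x ∈ P V) : ∃ b ∈ B, ∀ a ∈ A, ⁅b⁻¹ * x, a⁆ = 1 := by
  obtain ⟨a, ha, h1⟩ := h.l.exists_ne_one
  obtain ⟨b, hb, e⟩ := h.exists_b ha h1 (h.l.sys.comm h.l.hV hx (h.l.le ha))
  exact ⟨b, hb, fun a' ha' => h.l.cent_of ((P V).mul_mem ((P V).inv_mem (h.r.le hb)) hx) ha h1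
    ((h.l.sys.cm_eq_iff h.l.hV (h.r.le hb) hx (h.l.le ha)).2 e) ha'⟩

theorem exists_conj (ha : a ∈ A) (h1 : a ≠ 1) (hv : v ∈ V) : ∃ b ∈ B, b * a * b⁻¹ = a * v := by
  obtain ⟨b, hb, e⟩ := h.exists_b ha h1 hv
  exact ⟨b, hb, by rw [conj_eq_cm, e, h.l.sys.cent h.l.hV (h.l.le ha) hv]⟩

/-- The centre of `C_P(A)` lies in `A V`. -/
theorem center_cent (hx : x ∈ P V) (hc : ∀ c ∈ P V, (∀ a ∈ A, ⁅c, a⁆ = 1) → ⁅x, c⁆ = 1) :
    ∃ a ∈ A, a⁻¹ * x ∈ V := by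
  have s := h.l.sys
  have hV := h.l.hV
  obtain ⟨b, hb, h1⟩ := h.r.exists_ne_one
  obtain ⟨a, ha, e⟩ := h.symm.exists_b hb h1 (s.comm hV hx (h.r.le hb))
  have h2 : a⁻¹ * x ∈ P V := (P V).mul_mem ((P V).inv_mem (h.l.le ha)) hx
  refine ⟨a, ha, s.cP hV (s.P_le_norm hV h2) fun y hy => ?_⟩
  obtain ⟨c, hc1, hc2⟩ := h.decomp hy
  have h3 : c⁻¹ * y ∈ P V := (P V).mul_mem ((P V).inv_mem (h.r.le hc1)) hy
  rw [← mul_inv_cancel_left c y, s.cm_mul_right hV h2 (h.r.le hc1) h3,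
    h.r.cent_of h2 hb h1 ((s.cm_eq_iff hV (h.l.le ha) hx (h.r.le hb)).2 e) hc1, one_mul,
    s.cm_eq_iff hV (h.l.le ha) hx h3, hc _ h3 hc2, cm_symm (hc2 a ha)]

end Tri

end Cfsg.Lib.TISp
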