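import Cfsg.Agent.TISp.Symm
import Cfsg.Agent.Perm.SpreadField
import Cfsg.Agent.Class.DicksonLemma

/-!
The group `V A` is partitioned by members of the class, and `⟨P V, P A⟩` induces `SL₂` on it.
-/

set_option autoImplicit false
set_option linter.unusedSectionVars false

open Subgroup Cfsg.Lib.Solv Cfsg.Lib.Class
open scoped commutatorElement Pointwise Matrix

namespace Cfsg.Lib.TISp

variable {G : Type*} [Group G] [Finite G] {S : Set (Subgroup G)} {P : Subgroup G → Subgroup G}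
  {U U' V A B : Subgroup G} {a b c d f t v w x y z : G}

namespace Arr

variable (h : Arr S P V A)
include h

theorem mem_sup_iff : x ∈ V ⊔ A ↔ In V A x := by
  refine ⟨fun hx => ?_, ?_⟩
  · let W : Subgroup G :=
      { carrier := {x | In V A x}
        one_mem' := in_of_mem A.one_mem
        mul_mem' := h.in_mul
        inv_mem' := fun hx => by rwa [inv_eq_of_mul_eq_one_right (h.in_sq hx)] }
    exact (sup_le (fun v hv => ⟨1, A.one_mem, v, hv, (one_mul v).symm⟩)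
      (fun a ha => in_of_mem ha) : V ⊔ A ≤ W) hx
  · rintro ⟨a, ha, v, hv, rfl⟩
    exact mul_mem (mem_sup_right ha) (mem_sup_left hv)

theorem sup_le_P : V ⊔ A ≤ P V := sup_le (h.sys.le h.hV) h.le

theorem norm_sup (hx : x ∈ P V) : x ∈ normalizer ((V ⊔ A : Subgroup G) : Set G) :=
  mem_normalizer_of_conj_mem fun w hw => by
    rw [conj_eq_cm]
    exact mul_mem (mem_sup_left (h.sys.comm h.hV hx (h.sup_le_P hw))) hw

theorem exists_x (ha : a ∈ A) (h1 : a ≠ 1) (hv : v ∈ V) : ∃ x ∈ P V, ⁅x, a⁆ = v := by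
  obtain ⟨B, hB⟩ := h.exists_tri
  obtain ⟨b, hb, e⟩ := hB.exists_b ha h1 hv
  exact ⟨b, hB.r.le hb, e⟩

theorem exists_conj (hw : w ∈ V ⊔ A) (h1 : w ∉ V) : ∃ x ∈ P V, w ∈ MulAut.conj x • A := by
  obtain ⟨a, ha, v, hv, rfl⟩ := h.mem_sup_iff.1 hw
  obtain ⟨x, hx, e⟩ := h.exists_x ha (fun e => h1 (by rwa [e, one_mul])) hv
  refine ⟨x, hx, ?_⟩
  rw [h.sys.cent h.hV (h.le ha) hv, ← e, ← conj_eq_cm]
  exact conj_mem_conj_smul x ha

theorem conj_le (hx : x ∈ P V) (hU : U ≤ V ⊔ A) : MulAut.conj x • U ≤ V ⊔ A :=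
  (conj_smul_mono x hU).trans (conj_smul_eq_of_mem_normalizer (h.norm_sup hx)).le

theorem cover (hw : w ∈ V ⊔ A) : ∃ U ∈ S, U ≤ V ⊔ A ∧ w ∈ U := by
  by_cases h1 : w ∈ V
  · exact ⟨V, h.hV, le_sup_left, h1⟩
  obtain ⟨x, hx, e⟩ := h.exists_conj hw h1
  exact ⟨_, h.sys.conjS h.hA x, h.conj_le hx le_sup_right, e⟩

theorem exists_conj_eq (hU : U ∈ S) (h1 : U ≤ V ⊔ A) (h2 : U ≠ V) :
    ∃ x ∈ P V, U = MulAut.conj x • A := by
  have k : Arr S P V U := ⟨h.sys, h.hV, hU, h2, h1.trans h.sup_le_P⟩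
  obtain ⟨w, hw, h3⟩ := k.exists_ne_one
  obtain ⟨x, hx, e⟩ := h.exists_conj (h1 hw) fun e => h3 (k.eq_one hw e)
  exact ⟨x, hx, h.sys.ti hU (h.sys.conjS h.hA x) hw e h3⟩

theorem of_le' (hU : U ∈ S) (h1 : U ≤ V ⊔ A) (h2 : U ≠ V) : Arr S P V U ∧ V ⊔ U = V ⊔ A := by
  refine ⟨⟨h.sys, h.hV, hU, h2, h1.trans h.sup_le_P⟩, ?_⟩
  obtain ⟨x, hx, rfl⟩ := h.exists_conj_eq hU h1 h2
  rw [← conj_smul_eq_of_mem_normalizer (h.norm_sup hx), smul_sup,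
    conj_smul_eq_of_mem_normalizer (h.sys.P_le_norm h.hV hx)]

theorem of_le (hU : U ∈ S) (h1 : U ≤ V ⊔ A) (hU' : U' ∈ S) (h1' : U' ≤ V ⊔ A) (h2 : U' ≠ U) :
    Arr S P U U' ∧ U ⊔ U' = V ⊔ A := by
  by_cases e : U = V
  · subst e
    exact h.of_le' hU' h1' h2
  obtain ⟨k, e'⟩ := h.of_le' hU h1 e
  rw [← e', sup_comm V] at h1' ⊢
  exact k.symm.of_le' hU' h1' h2

theorem left_inv (hx : x ∈ P V) (hy : y ∈ P A) (ha : a ∈ A) (h1 : a ≠ 1) (e : ⁅y, ⁅x, a⁆⁆ = a)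
    (hb : b ∈ A) : ⁅y, ⁅x, b⁆⁆ = b := by
  have s := h.sys
  have h2 := s.comm h.hV hx (h.le ha)
  have h3 := s.comm h.hV hx (h.le hb)
  have e1 : y * ⁅x, a⁆ * y⁻¹ = x * a * x⁻¹ := by
    rw [conj_eq_cm, e, conj_eq_cm, s.cent h.hV (h.le ha) h2]
  have e2 : MulAut.conj y • V = MulAut.conj x • A :=
    s.ti (s.conjS h.hV y) (s.conjS h.hA x) (conj_mem_conj_smul y h2)
      (e1 ▸ conj_mem_conj_smul x ha) (by rw [e1]; simpa using h1)
  obtain ⟨v, hv, e3⟩ := mem_conj_smul_iff_exists.1 (e2 ▸ conj_mem_conj_smul x hb)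
  rw [conj_eq_cm, conj_eq_cm, ← s.cent h.hV (h.le hb) h3] at e3
  have h4 := s.comm h.hA hy (h.symm.le hv)
  have e4 : b⁻¹ * ⁅y, v⁆ = ⁅x, b⁆ * v⁻¹ := by
    rw [inv_mul_eq_iff_eq_mul, ← mul_assoc, ← e3, mul_inv_cancel_right]
  have e5 := h.eq_one (A.mul_mem (A.inv_mem hb) h4) (e4 ▸ V.mul_mem h3 (V.inv_mem hv))
  rw [mul_inv_eq_one.1 (e4.symm.trans e5), ← inv_mul_eq_one.1 e5]

theorem right {a₁ a₂ : G} (h1 : a₁ ∈ A) (h2 : a₂ ∈ A) (n1 : a₁ ≠ 1) (n2 : a₂ ≠ 1) :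
    (∀ x₁ ∈ P V, ∀ x₂ ∈ P V, ⁅x₁, a₁⁆ = ⁅x₂, a₂⁆ → ∀ w ∈ A, ⁅x₁, w⁆ * ⁅x₂, w⁆ = 1) ∨
    ∃ a₃ ∈ A, ∀ x₁ ∈ P V, ∀ x₂ ∈ P V, ⁅x₁, a₁⁆ = ⁅x₂, a₂⁆ → ⁅x₁, a₃⁆ * ⁅x₂, a₃⁆ = ⁅x₁, a₁⁆ := by
  have s := h.sys
  obtain ⟨B, hB⟩ := h.exists_tri
  have r := hB.r
  obtain ⟨b, hb, hb1⟩ := r.exists_ne_one
  have key : ∀ a ∈ A, a ≠ 1 → ∃ y ∈ P B, ∀ b ∈ B, ⁅y, ⁅a, b⁆⁆ = b := fun a ha n => by
    obtain ⟨y, hy, e⟩ := r.symm.exists_x (s.comm h.hV (h.le ha) (r.le hb))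
      (fun e => hB.ne ha n hb hb1 (cm_symm e)) hb
    exact ⟨y, hy, fun c hc => r.left_inv (h.le ha) hy hb hb1 e hc⟩
  obtain ⟨y₁, hy₁, e₁⟩ := key a₁ h1 n1
  obtain ⟨y₂, hy₂, e₂⟩ := key a₂ h2 n2
  have hy := (P B).mul_mem hy₁ hy₂
  have main : ∀ x₁ ∈ P V, ∀ x₂ ∈ P V, ⁅x₁, a₁⁆ = ⁅x₂, a₂⁆ → ∀ w ∈ A,
      ⁅x₁, w⁆ * ⁅x₂, w⁆ = ⁅w, ⁅y₁ * y₂, ⁅x₁, a₁⁆⁆⁆ := fun x₁ hx₁ x₂ hx₂ e w hw => by
    obtain ⟨b₁, hb₁, f₁⟩ := hB.decomp hx₁
    obtain ⟨b₂, hb₂, f₂⟩ := hB.decomp hx₂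
    have g₁ := fun a ha => (s.cm_eq_iff h.hV (r.le hb₁) hx₁ (h.le ha)).1 (f₁ a ha)
    have g₂ := fun a ha => (s.cm_eq_iff h.hV (r.le hb₂) hx₂ (h.le ha)).1 (f₂ a ha)
    rw [s.cm_mul_left r.hA hy₁ hy₂ (r.symm.le (s.comm h.hV hx₁ (h.le h1)))]
    nth_rw 2 [e]
    rw [← g₁ a₁ h1, ← g₂ a₂ h2, s.cm_swap h.hV (r.le hb₁) (h.le h1),
      s.cm_swap h.hV (r.le hb₂) (h.le h2), e₁ _ hb₁, e₂ _ hb₂, ← g₁ w hw, ← g₂ w hw,
      s.cm_mul_right h.hV (h.le hw) (r.le hb₁) (r.le hb₂), s.cm_swap h.hV (r.le hb₁) (h.le hw),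
      s.cm_swap h.hV (r.le hb₂) (h.le hw)]
  by_cases hc : ∀ v ∈ V, ⁅y₁ * y₂, v⁆ = 1
  · refine .inl fun x₁ hx₁ x₂ hx₂ e w hw => ?_
    rw [main x₁ hx₁ x₂ hx₂ e w hw, hc _ (s.comm h.hV hx₁ (h.le h1)), commutatorElement_one_right]
  push Not at hc
  obtain ⟨v, hv, n⟩ := hc
  obtain ⟨a₃, h3, e₃⟩ := hB.symm.exists_b (s.comm r.hA hy (r.symm.le hv)) n hv
  refine .inr ⟨a₃, h3, fun x₁ hx₁ x₂ hx₂ e => ?_⟩
  rw [main x₁ hx₁ x₂ hx₂ e a₃ h3]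
  exact r.symm.left_inv hy (h.le h3) hv (fun e => n (by simp [e])) e₃
    (s.comm h.hV hx₁ (h.le h1))

theorem sup_comm' (hx : x ∈ V ⊔ A) (hy : y ∈ V ⊔ A) : x * y = y * x :=
  cm_iff.1 (h.in_comm (h.mem_sup_iff.1 hx) (h.mem_sup_iff.1 hy))

/-- The group `V A` written additively. -/
def AW (_ : Arr S P V A) : Type _ := Additive (V ⊔ A : Subgroup G)

instance : AddCommGroup h.AW :=
  { (inferInstance : AddGroup (Additive (V ⊔ A : Subgroup G))) with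
    add_comm := fun a b => Subtype.ext (h.sup_comm' a.2 b.2) }

instance : Finite h.AW := inferInstanceAs (Finite (V ⊔ A : Subgroup G))

/-- The members of the class inside `V A`. -/
def Om (_ : Arr S P V A) : Type _ := {U : Subgroup G // U ∈ S ∧ U ≤ V ⊔ A}

end Arr

variable {h : Arr S P V A}

/-- The underlying group element. -/
def Arr.AW.val (v : h.AW) : G := Subtype.val v

/-- The element of `V A` given by a group element. -/
def Arr.AW.mk (g : G) (hg : g ∈ V ⊔ A) : h.AW := Subtype.mk g hg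

namespace Arr

theorem AW.mem (v : h.AW) : v.val ∈ V ⊔ A := Subtype.property v
theorem AW.ext {v w : h.AW} (e : v.val = w.val) : v = w := Subtype.ext e
theorem AW.ne {v : h.AW} (hv : v ≠ 0) : v.val ≠ 1 := fun e => hv (AW.ext e)

theorem Om.arr {z u : h.Om} (e : z ≠ u) : Arr S P u.1 z.1 ∧ u.1 ⊔ z.1 = V ⊔ A :=
  h.of_le u.2.1 u.2.2 z.2.1 z.2.2 fun e' => e (Subtype.ext e')

theorem Om.two (u : h.Om) : ∃ z, z ≠ u := by
  by_cases e : u.1 = V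
  · exact ⟨⟨A, h.hA, le_sup_right⟩, fun e' => h.ne ((congrArg Subtype.val e').trans e)⟩
  · exact ⟨⟨V, h.hV, le_sup_left⟩, fun e' => e (congrArg Subtype.val e').symm⟩

theorem Om.le (u : h.Om) : V ⊔ A ≤ P u.1 := by
  obtain ⟨z, hz⟩ := u.two
  obtain ⟨k, e⟩ := Om.arr hz
  exact e.ge.trans k.sup_le_P

variable (h)

/-- A member of the class as an additive subgroup. -/
def TT (u : h.Om) : AddSubgroup h.AW where
  carrier := {v | v.val ∈ u.1}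
  zero_mem' := u.1.one_mem
  add_mem' := u.1.mul_mem
  neg_mem' := u.1.inv_mem

/-- The shears with a given axis. -/
def JJ (u : h.Om) : AddSubgroup (h.AW →+ h.AW) where
  carrier := {α | ∃ x ∈ P u.1, ∀ v, (α v).val = ⁅x, v.val⁆}
  zero_mem' := ⟨1, one_mem _, fun v => (commutatorElement_one_left _).symm⟩
  add_mem' := by
    rintro α β ⟨x, hx, hα⟩ ⟨y, hy, hβ⟩
    refine ⟨x * y, mul_mem hx hy, fun v => ?_⟩
    rw [h.sys.cm_mul_left u.2.1 hx hy (u.le v.mem), ← hα, ← hβ]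
    rfl
  neg_mem' := by
    rintro α ⟨x, hx, hα⟩
    refine ⟨x, hx, fun v => ?_⟩
    rw [← h.sys.inv_eq u.2.1 (h.sys.comm u.2.1 hx (u.le v.mem)), ← hα]
    rfl

theorem exists_sh (u : h.Om) (hx : x ∈ P u.1) :
    ∃ α ∈ h.JJ u, ∀ v, (α v).val = ⁅x, v.val⁆ :=
  ⟨AddMonoidHom.mk' (fun v => AW.mk ⁅x, v.val⁆ (u.2.2 (h.sys.comm u.2.1 hx (u.le v.mem))))
    fun v w => AW.ext (h.sys.cm_mul_right u.2.1 hx (u.le v.mem) (u.le w.mem)),
    ⟨x, hx, fun _ => rfl⟩, fun _ => rfl⟩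

theorem val_shear {α : h.AW →+ h.AW} (hα : ∀ v, (α v).val = ⁅x, v.val⁆) (v : h.AW) :
    (v + α v).val = x * v.val * x⁻¹ := by
  rw [add_comm, conj_eq_cm, ← hα]
  rfl

theorem spread : Perm.Spread h.TT h.JJ where
  map_mem := by
    rintro u α ⟨x, hx, hα⟩ v
    change (α v).val ∈ u.1
    rw [hα]
    exact h.sys.comm u.2.1 hx (u.le v.mem)
  kill := by
    rintro u α ⟨x, hx, hα⟩ v hv
    exact AW.ext ((hα v).trans (h.sys.cm_cent u.2.1 hx hv))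
  kill_of := by
    rintro z u e α ⟨x, hx, hα⟩ v hv h0 h1 w hw
    exact AW.ext ((hα w).trans ((Om.arr e).1.cent_of hx hv (AW.ne h0)
      ((hα v).symm.trans (congrArg AW.val h1)) hw))
  exists_eq := by
    intro z u e v c hv h0 hc
    obtain ⟨x, hx, e'⟩ := (Om.arr e).1.exists_x hv (AW.ne h0) hc
    obtain ⟨α, hα, e''⟩ := h.exists_sh u hx
    exact ⟨α, hα, AW.ext ((e'' v).trans e')⟩
  disj := fun e v h1 h2 => AW.ext ((Om.arr e).1.eq_one h1 h2)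
  cover := fun v => by
    obtain ⟨U, h1, h2, h3⟩ := h.cover v.mem
    exact ⟨⟨U, h1, h2⟩, h3⟩
  shear := by
    rintro u α ⟨x, hx, hα⟩ z
    obtain ⟨y, hy⟩ := u.two
    obtain ⟨k, e⟩ := Om.arr hy
    refine ⟨⟨_, h.sys.conjS z.2.1 x, (k.conj_le hx (z.2.2.trans e.ge)).trans e.le⟩, fun v hv => ?_⟩
    change (v + α v).val ∈ MulAut.conj x • z.1
    rw [h.val_shear hα]
    exact conj_mem_conj_smul x hv
  right := by
    intro z u e v₁ v₂ h1 h2 n1 n2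
    rcases (Om.arr e).1.right h1 h2 (AW.ne n1) (AW.ne n2) with k | ⟨a, ha, k⟩
    · left
      rintro α₁ ⟨x₁, hx₁, f₁⟩ α₂ ⟨x₂, hx₂, f₂⟩ e' w hw
      refine AW.ext ?_
      have := k x₁ hx₁ x₂ hx₂ (by rw [← f₁, ← f₂, e']) _ hw
      rwa [← f₁, ← f₂] at this
    · right
      refine ⟨AW.mk a (z.2.2 ha), ha, ?_⟩
      rintro α₁ ⟨x₁, hx₁, f₁⟩ α₂ ⟨x₂, hx₂, f₂⟩ e'
      refine AW.ext ?_
      rw [f₁ v₁, ← k x₁ hx₁ x₂ hx₂ (by rw [← f₁, ← f₂, e'])]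
      exact congrArg₂ (· * ·) (f₁ _) (f₂ _)
  comp := by
    intro z u w e e'
    obtain ⟨k, e1⟩ := Om.arr e
    obtain ⟨x, hx, e2⟩ := k.exists_conj_eq w.2.1 (w.2.2.trans e1.ge) (Om.arr e').1.ne
    obtain ⟨α, hα, e3⟩ := h.exists_sh u hx
    refine .inl ⟨α, hα, fun v hv => ?_⟩
    change (v + α v).val ∈ w.1
    rw [h.val_shear e3, e2]
    exact conj_mem_conj_smul x hv
  ne_bot := fun u => by
    obtain ⟨z, hz⟩ := u.two
    obtain ⟨v, hv, h1⟩ := (Om.arr hz).1.exists_ne_one'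
    exact ⟨AW.mk v (u.2.2 hv), hv, fun e => h1 (congrArg AW.val e)⟩
  two := Om.two

end Arr

section Lin

variable {W ι : Type*} [AddCommGroup W] {T : ι → AddSubgroup W} {J : ι → AddSubgroup (W →+ W)}
  {F : Type*} [Field F] [Module F W]

theorem spread_smul_mem (hl : ∀ u, ∀ v ∈ T u, v ≠ 0 → ∀ x, x ∈ T u ↔ ∃ c : F, c • v = x) {u : ι}
    {v : W} (hv : v ∈ T u) (c : F) : c • v ∈ T u := by
  by_cases h0 : v = 0
  · rwa [h0, smul_zero, ← h0]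
  · exact (hl u v hv h0 _).2 ⟨c, rfl⟩

theorem spread_lin (s : Perm.Spread T J)
    (hl : ∀ u, ∀ v ∈ T u, v ≠ 0 → ∀ x, x ∈ T u ↔ ∃ c : F, c • v = x) {z u : ι} (e : z ≠ u)
    {α : W →+ W} (hα : α ∈ J u) {v : W} (hv : v ∈ T z) (h0 : v ≠ 0) (c : F) :
    α (c • v) = c • α v := by
  obtain ⟨t, ht⟩ := s.shear hα z
  have h1 : v + α v ≠ 0 := fun e' => h0 (s.disj e hv (by
    rw [eq_neg_of_add_eq_zero_left e']; exact neg_mem (s.map_mem hα v)))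
  obtain ⟨d, hd⟩ := (hl t _ (ht v hv) h1 _).1 (ht _ (spread_smul_mem hl hv c))
  have h2 : (d - c) • v = α (c • v) - d • α v := by
    rw [sub_smul, sub_eq_sub_iff_add_eq_add, ← smul_add, hd, add_comm]
  have h3 := s.disj e (spread_smul_mem hl hv (d - c))
    (h2 ▸ sub_mem (s.map_mem hα _) (spread_smul_mem hl (s.map_mem hα _) d))
  rw [h3] at h2
  rw [sub_eq_zero.1 h2.symm, sub_eq_zero.1 ((smul_eq_zero.1 h3).resolve_right h0)]

end Lin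

theorem Arr.exists_coord (h : Arr S P V A) : ∃ (F : Type) (_ : Field F) (_ : Fintype F)
    (e : (Fin 2 → F) ≃ (V ⊔ A : Subgroup G)), Fintype.card F = Nat.card V ∧
    (∀ x ∈ P V, ∃ c : F, ∀ p, (e (slV c • p) : G) = x * e p * x⁻¹) ∧
    (∀ c : F, ∃ x ∈ P V, ∀ p, (e (slV c • p) : G) = x * e p * x⁻¹) ∧
    (∀ x ∈ P A, ∃ c : F, ∀ p, (e (slU c • p) : G) = x * e p * x⁻¹) ∧
    (∀ c : F, ∃ x ∈ P A, ∀ p, (e (slU c • p) : G) = x * e p * x⁻¹) := by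
  let uV : h.Om := ⟨V, h.hV, le_sup_left⟩
  let uA : h.Om := ⟨A, h.hA, le_sup_right⟩
  have hne : uA ≠ uV := fun e => h.ne (congrArg Subtype.val e)
  have : Nonempty h.Om := ⟨uV⟩
  have s := h.spread
  obtain ⟨F, _, _, _, hl⟩ := s.exists_field
  obtain ⟨a, ha, ha0⟩ := s.ne_bot uA
  obtain ⟨v, hv, hv0⟩ := s.ne_bot uV
  let f : (Fin 2 → F) → h.AW := fun p => p 0 • a + p 1 • v
  have hf : Function.Bijective f := by
    refine ⟨fun p q e => ?_, fun w => ?_⟩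
    · have h1 : (p 0 - q 0) • a = (q 1 - p 1) • v := by
        rw [sub_smul, sub_smul, sub_eq_sub_iff_add_eq_add, add_comm (q 1 • v)]
        exact e
      have h2 := s.disj hne (spread_smul_mem hl ha _) (h1 ▸ spread_smul_mem hl hv _)
      have h3 := (smul_eq_zero.1 h2).resolve_right ha0
      have h4 := (smul_eq_zero.1 (h1 ▸ h2)).resolve_right hv0
      ext i
      fin_cases i
      · exact sub_eq_zero.1 h3
      · exact (sub_eq_zero.1 h4).symm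
    · obtain ⟨b, hb, u, hu, e⟩ := h.mem_sup_iff.1 w.mem
      obtain ⟨c, hc⟩ := (hl uA a ha ha0 (Arr.AW.mk b (mem_sup_right hb))).1 hb
      obtain ⟨d, hd⟩ := (hl uV v hv hv0 (Arr.AW.mk u (mem_sup_left hu))).1 hu
      refine ⟨![c, d], Arr.AW.ext ?_⟩
      change (c • a + d • v).val = _
      rw [hc, hd, e]
      rfl
  have k1 : ∀ (x : G) (c : F) (α : h.AW →+ h.AW), α ∈ h.JJ uV → (∀ v, (α v).val = ⁅x, v.val⁆) →
      c • v = α a → ∀ p, (f (slV c • p)).val = x * (f p).val * x⁻¹ := fun x c α hα e e' p => by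
    rw [← h.val_shear e]
    congr 1
    simp only [f, map_add, spread_lin s hl hne hα ha ha0, s.kill hα (spread_smul_mem hl hv _), ← e']
    change (!![1, 0; c, 1] *ᵥ p) 0 • a + (!![1, 0; c, 1] *ᵥ p) 1 • v = _
    simp [Matrix.mulVec, dotProduct, Fin.sum_univ_two]
    module
  have k2 : ∀ (x : G) (c : F) (α : h.AW →+ h.AW), α ∈ h.JJ uA → (∀ v, (α v).val = ⁅x, v.val⁆) →
      c • a = α v → ∀ p, (f (slU c • p)).val = x * (f p).val * x⁻¹ := fun x c α hα e e' p => by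
    rw [← h.val_shear e]
    congr 1
    simp only [f, map_add, spread_lin s hl hne.symm hα hv hv0,
      s.kill hα (spread_smul_mem hl ha _), ← e']
    change (!![1, c; 0, 1] *ᵥ p) 0 • a + (!![1, c; 0, 1] *ᵥ p) 1 • v = _
    simp [Matrix.mulVec, dotProduct, Fin.sum_univ_two]
    module
  refine ⟨F, inferInstance, inferInstance, Equiv.ofBijective f hf, ?_, fun x hx => ?_, fun c => ?_,
    fun x hx => ?_, fun c => ?_⟩
  · rw [← Nat.card_eq_fintype_card]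
    refine Nat.card_eq_of_bijective
      (fun c : F => (⟨(c • v).val, spread_smul_mem hl hv c⟩ : V)) ⟨fun c d e => ?_, fun u => ?_⟩
    · have e' : (c • v).val = (d • v).val := congrArg (fun u : V => (u : G)) e
      exact smul_left_injective F hv0 (Arr.AW.ext e')
    · obtain ⟨d, hd⟩ := (hl uV v hv hv0 (Arr.AW.mk u (mem_sup_left u.2))).1 u.2
      exact ⟨d, Subtype.ext (congrArg Arr.AW.val hd)⟩
  · obtain ⟨α, hα, e⟩ := h.exists_sh uV hx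
    obtain ⟨c, hc⟩ := (hl uV v hv hv0 _).1 (s.map_mem hα a)
    exact ⟨c, k1 x c α hα e hc⟩
  · obtain ⟨α, ⟨x, hx, e⟩, hc⟩ := s.exists_eq hne ha ha0 (spread_smul_mem hl hv c)
    exact ⟨x, hx, k1 x c α ⟨x, hx, e⟩ e hc.symm⟩
  · obtain ⟨α, hα, e⟩ := h.exists_sh uA hx
    obtain ⟨c, hc⟩ := (hl uA a ha ha0 _).1 (s.map_mem hα v)
    exact ⟨c, k2 x c α hα e hc⟩
  · obtain ⟨α, ⟨x, hx, e⟩, hc⟩ := s.exists_eq hne.symm hv hv0 (spread_smul_mem hl ha c)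
    exact ⟨x, hx, k2 x c α ⟨x, hx, e⟩ e hc.symm⟩

theorem Arr.sup_P_le (h : Arr S P V A) :
    P V ⊔ P A ≤ normalizer ((V ⊔ A : Subgroup G) : Set G) :=
  sup_le (fun _ => h.norm_sup) fun _ hx => sup_comm A V ▸ h.symm.norm_sup hx

theorem Arr.exists_SL2 (h : Arr S P V A)
    (hN : ((centralizer ((V ⊔ A : Subgroup G) : Set G)).subgroupOf (P V ⊔ P A)).Normal) :
    ∃ (F : Type) (_ : Field F) (_ : Fintype F), Fintype.card F = Nat.card V ∧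
      Nonempty (↥(P V ⊔ P A) ⧸ (centralizer ((V ⊔ A : Subgroup G) : Set G)).subgroupOf (P V ⊔ P A)
        ≃* Matrix.SpecialLinearGroup (Fin 2) F) := by
  obtain ⟨F, _, _, e, hc, h1, h2, h3, h4⟩ := h.exists_coord
  refine ⟨F, inferInstance, inferInstance, hc, ?_⟩
  let ρ : normalizer ((V ⊔ A : Subgroup G) : Set G) →* Equiv.Perm (V ⊔ A : Subgroup G) :=
    (MulAut.toPerm _).comp (normalizerMonoidHom (V ⊔ A))
  let ψ : Matrix.SpecialLinearGroup (Fin 2) F →* Equiv.Perm (V ⊔ A : Subgroup G) :=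
    e.permCongrHom.toMonoidHom.comp (MulAction.toPermHom _ (Fin 2 → F))
  have hψ : Function.Injective ψ := e.permCongrHom.injective.comp fun m n k =>
    Subtype.ext (Matrix.ext_of_mulVec_single fun i => Equiv.congr_fun k (Pi.single i 1))
  have key : ∀ (x : normalizer ((V ⊔ A : Subgroup G) : Set G)) (m : Matrix.SpecialLinearGroup
      (Fin 2) F), (∀ p, (e (m • p) : G) = x * e p * (x : G)⁻¹) → ψ m = ρ x := fun x m k => by
    ext w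
    obtain ⟨p, rfl⟩ := e.surjective w
    refine Eq.trans ?_ (k p)
    simp [ψ]
  let σ := ρ.comp (inclusion h.sup_P_le)
  have hk : (centralizer ((V ⊔ A : Subgroup G) : Set G)).subgroupOf (P V ⊔ P A) = σ.ker := by
    ext x
    rw [mem_subgroupOf, mem_centralizer_iff, MonoidHom.mem_ker, Equiv.ext_iff]
    refine ⟨fun k w => Subtype.ext ?_, fun k w hw => ?_⟩
    · change (x : G) * w * (x : G)⁻¹ = w
      rw [← k w w.2, mul_inv_cancel_right]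
    · have : (x : G) * w * (x : G)⁻¹ = w := congrArg Subtype.val (k ⟨w, hw⟩)
      rw [← mul_inv_eq_iff_eq_mul.1 this]
  have hr : σ.range = ψ.range := by
    refine le_antisymm ?_ ?_
    · have : P V ⊔ P A ≤ (ψ.range.comap ρ).map (normalizer _).subtype := by
        refine sup_le (fun x hx => ?_) fun x hx => ?_
        · obtain ⟨c, k⟩ := h1 x hx
          exact ⟨⟨x, h.sup_P_le (mem_sup_left hx)⟩, ⟨_, key _ _ k⟩, rfl⟩
        · obtain ⟨c, k⟩ := h3 x hx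
          exact ⟨⟨x, h.sup_P_le (mem_sup_right hx)⟩, ⟨_, key _ _ k⟩, rfl⟩
      rintro _ ⟨x, rfl⟩
      obtain ⟨y, hy, e'⟩ := this x.2
      obtain rfl : y = inclusion h.sup_P_le x := Subtype.ext e'
      exact hy
    · have := sl2_eq_top_of_slU_slV (σ.range.comap ψ) (fun c => ?_) fun c => ?_
      · rintro _ ⟨m, rfl⟩
        exact (this.ge (mem_top m) :)
      · obtain ⟨x, hx, k⟩ := h4 c
        exact ⟨⟨x, mem_sup_right hx⟩, (key ⟨x, h.sup_P_le (mem_sup_right hx)⟩ _ k).symm⟩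
      · obtain ⟨x, hx, k⟩ := h2 c
        exact ⟨⟨x, mem_sup_left hx⟩, (key ⟨x, h.sup_P_le (mem_sup_left hx)⟩ _ k).symm⟩
  exact ⟨(QuotientGroup.quotientMulEquivOfEq hk).trans ((QuotientGroup.quotientKerEquivRange σ).trans
    ((MulEquiv.subgroupCongr hr).trans (MonoidHom.ofInjective hψ).symm))⟩

theorem Arr.exists_conj_V (h : Arr S P V A) (hv : v ∈ V) (h1 : v ≠ 1) (hw : w ∈ V) (h2 : w ≠ 1) :
    ∃ m ∈ normalizer (V : Set G), m * v * m⁻¹ = w := by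
  obtain ⟨a, ha, h3⟩ := h.exists_ne_one
  have key : ∀ v ∈ V, v ≠ 1 → IsConj v a := fun v hv h1 => by
    obtain ⟨x, -, e⟩ := h.exists_x ha h3 hv
    obtain ⟨y, -, e'⟩ := h.symm.exists_x hv h1 ha
    have e1 : IsConj a (v * a) := isConj_iff.2 ⟨x, by rw [conj_eq_cm, e]⟩
    have e2 : IsConj v (v * a) :=
      isConj_iff.2 ⟨y, by rw [conj_eq_cm, e', h.sys.cent h.hV (h.le ha) hv]⟩
    exact e2.trans e1.symm
  obtain ⟨m, e⟩ := isConj_iff.1 ((key v hv h1).trans (key w hw h2).symm)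
  exact ⟨m, mem_normalizer_iff_conj_smul_eq.2
    (h.sys.ti (h.sys.conjS h.hV m) h.hV (e ▸ conj_mem_conj_smul m hv) hw h2), e⟩

end Cfsg.Lib.TISp
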