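import Cfsg.Agent.TISp.Basic

/-!
The relation `A ≤ P V` between distinct members of the class is symmetric.
-/

set_option autoImplicit false

open Subgroup Cfsg.Lib.Solv
open scoped commutatorElement Pointwise

namespace Cfsg.Lib.TISp

variable {G : Type*} [Group G] [Finite G] {S : Set (Subgroup G)} {P : Subgroup G → Subgroup G}
  {U V A B : Subgroup G} {a b c d f t v w x y z : G}

/-- Membership in the product `A U`. -/
def In (U A : Subgroup G) (x : G) : Prop := ∃ a ∈ A, ∃ v ∈ U, x = a * v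

/-- The case `P U = A B U`. -/
structure Small (S : Set (Subgroup G)) (P : Subgroup G → Subgroup G) (U A B : Subgroup G) :
    Prop where
  tri : Tri S P U A B
  dec : ∀ {x}, x ∈ P U → ∃ a ∈ A, ∃ b ∈ B, ∃ v ∈ U, x = a * b * v

omit [Finite G] in
theorem Arr.in_mem (h : Arr S P U A) (hx : In U A x) : x ∈ P U := by
  obtain ⟨a, ha, v, hv, rfl⟩ := hx
  exact (P U).mul_mem (h.le ha) (h.sys.le h.hV hv)

omit [Finite G] in
theorem Arr.cm_in_right (h : Arr S P U A) (hx : x ∈ P U) (hy : y ∈ P U) (hv : v ∈ U) :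
    ⁅x, y * v⁆ = ⁅x, y⁆ := by
  rw [h.sys.cm_mul_right h.hV hx hy (h.sys.le h.hV hv), h.sys.cm_cent h.hV hx hv, mul_one]

omit [Finite G] in
theorem Arr.cm_in_left (h : Arr S P U A) (hx : x ∈ P U) (hy : y ∈ P U) (hv : v ∈ U) :
    ⁅x * v, y⁆ = ⁅x, y⁆ := by
  rw [h.sys.cm_mul_left h.hV hx (h.sys.le h.hV hv) hy, cm_symm (h.sys.cm_cent h.hV hy hv), mul_one]

omit [Finite G] in
theorem Arr.cm_AA (h : Arr S P U A) (ha : a ∈ A) (hb : b ∈ A) : ⁅a, b⁆ = 1 :=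
  h.sys.cm_cent h.hA (h.sys.le h.hA ha) hb

omit [Finite G] in
theorem Arr.in_comm (h : Arr S P U A) (hx : In U A x) (hy : In U A y) : ⁅x, y⁆ = 1 := by
  have h1 := h.in_mem hx
  obtain ⟨a, ha, v, hv, rfl⟩ := hx
  obtain ⟨b, hb, w, hw, rfl⟩ := hy
  rw [h.cm_in_right h1 (h.le hb) hw, h.cm_in_left (h.le ha) (h.le hb) hv, h.cm_AA ha hb]

omit [Finite G] in
theorem Arr.in_sq (h : Arr S P U A) (hx : In U A x) : x * x = 1 := by
  obtain ⟨a, ha, v, hv, rfl⟩ := hx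
  rw [mul_assoc, ← mul_assoc v, ← h.sys.cent h.hV (h.le ha) hv, mul_assoc, h.sys.sq h.hV hv,
    mul_one, h.sys.sq h.hA ha]

omit [Finite G] in
theorem Arr.in_mul (h : Arr S P U A) (hx : In U A x) (hy : In U A y) : In U A (x * y) := by
  obtain ⟨a, ha, v, hv, rfl⟩ := hx
  obtain ⟨b, hb, w, hw, rfl⟩ := hy
  exact ⟨a * b, A.mul_mem ha hb, v * w, U.mul_mem hv hw, by
    rw [mul_assoc, ← mul_assoc v, ← h.sys.cent h.hV (h.le hb) hv, mul_assoc, mul_assoc]⟩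

omit [Finite G] in
theorem in_of_mem (ha : a ∈ A) : In U A a := ⟨a, ha, 1, U.one_mem, (mul_one a).symm⟩

omit [Finite G] in
theorem Tri.in_in (h : Tri S P U A B) (h1 : In U A x) (h2 : In U B x) : x ∈ U := by
  obtain ⟨a, ha, v, hv, e1⟩ := h1
  obtain ⟨b, hb, w, hw, e2⟩ := h2
  by_cases h3 : a = 1
  · rwa [e1, h3, one_mul]
  by_cases h4 : b = 1
  · rwa [e2, h4, one_mul]
  refine absurd ?_ (h.ne ha h3 hb h4)
  rw [← h.l.cm_in_left (h.r.le hb) (h.l.le ha) hw, ← e2]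
  exact h.l.in_comm ⟨a, ha, v, hv, e1⟩ (in_of_mem ha)

namespace Small

variable (h : Small S P U A B)
include h

omit [Finite G] in
theorem symm : Small S P U B A := ⟨h.tri.symm, fun hx => by
  obtain ⟨a, ha, b, hb, v, hv, rfl⟩ := h.dec hx
  have s := h.tri.l.sys
  have h1 := s.comm h.tri.l.hV (h.tri.l.le ha) (h.tri.r.le hb)
  refine ⟨b, hb, a, ha, ⁅a, b⁆ * v, U.mul_mem h1 hv, ?_⟩
  rw [← mul_assoc, s.cent h.tri.l.hV ((P U).mul_mem (h.tri.r.le hb) (h.tri.l.le ha)) h1,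
    commutatorElement_def]
  group⟩

omit [Finite G] in
theorem sq_eq (ha : a ∈ A) (hb : b ∈ B) (hv : v ∈ U) : a * b * v * (a * b * v) = ⁅a, b⁆ := by
  have s := h.tri.l.sys
  rw [mul_assoc, ← mul_assoc v,
    ← s.cent h.tri.l.hV ((P U).mul_mem (h.tri.l.le ha) (h.tri.r.le hb)) hv, mul_assoc (a * b) v,
    s.sq h.tri.l.hV hv, mul_one, commutatorElement_def, s.inv_eq h.tri.l.hA ha,
    s.inv_eq h.tri.r.hA hb, ← mul_assoc]

omit [Finite G] in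
theorem invol (hx : x ∈ P U) (e : x * x = 1) : In U A x ∨ In U B x := by
  obtain ⟨a, ha, b, hb, v, hv, rfl⟩ := h.dec hx
  rw [h.sq_eq ha hb hv] at e
  by_cases h1 : a = 1
  · exact .inr ⟨b, hb, v, hv, by rw [h1, one_mul]⟩
  by_cases h2 : b = 1
  · exact .inl ⟨a, ha, v, hv, by rw [h2, mul_one]⟩
  exact absurd (cm_symm e) (h.tri.ne ha h1 hb h2)

omit [Finite G] in
theorem in_of_comm (hx : In U A x) (h1 : x ∉ U) (hy : y ∈ P U) (e : ⁅x, y⁆ = 1) : In U A y := by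
  obtain ⟨a, ha, b, hb, v, hv, rfl⟩ := h.dec hy
  obtain ⟨c, hc, w, hw, rfl⟩ := hx
  have l := h.tri.l
  have h2 : c ≠ 1 := fun e => h1 (by rwa [e, one_mul])
  rw [l.cm_in_left (l.le hc) hy hw,
    l.cm_in_right (l.le hc) ((P U).mul_mem (l.le ha) (h.tri.r.le hb)) hv,
    l.sys.cm_mul_right l.hV (l.le hc) (l.le ha) (h.tri.r.le hb), l.cm_AA hc ha, one_mul] at e
  have h3 : b = 1 := by_contra fun h3 => h.tri.ne hc h2 hb h3 (cm_symm e)
  exact ⟨a, ha, v, hv, by rw [h3, mul_one]⟩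

theorem false_of_two (h2 : ∀ x ∈ U, ∀ y ∈ U, x ≠ 1 → y ≠ 1 → x = y) : False := by
  have l := h.tri.l
  have s := l.sys
  have h3 : ∀ {X}, X ∈ S → ∀ x ∈ X, ∀ y ∈ X, x ≠ 1 → y ≠ 1 → x = y := fun hX x hx y hy h1 h1' => by
    obtain ⟨g, rfl⟩ := s.trans l.hV hX
    obtain ⟨x, hx', rfl⟩ := mem_conj_smul_iff_exists.1 hx
    obtain ⟨y, hy', rfl⟩ := mem_conj_smul_iff_exists.1 hy
    rw [h2 x hx' y hy' (fun e => h1 (by simp [e])) (fun e => h1' (by simp [e]))]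
  obtain ⟨a, ha, ha1⟩ := l.exists_ne_one
  obtain ⟨b, hb, hb1⟩ := h.tri.r.exists_ne_one
  have hab : a * b ∈ P U := (P U).mul_mem (l.le ha) (h.tri.r.le hb)
  have hne : ⁅a, b⁆ ≠ 1 := fun e => h.tri.ne ha ha1 hb hb1 (cm_symm e)
  have h4 := s.max l.hV (A := U ⊔ zpowers (a * b)) le_sup_left
    (sup_le le_normalizer (zpowers_le.2 (s.P_le_norm l.hV hab)))
    (Local.CD.isMulCommutative_sup ⟨⟨fun a b => Subtype.ext (s.cent l.hV (s.le l.hV a.2) b.2)⟩⟩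
      inferInstance fun v hv x hx => s.cent l.hV (zpowers_le.2 hab hx) hv)
    fun m hm => mem_normalizer_of_conj_mem (conj_smul_le_iff.1 (by
      rw [smul_sup, conj_smul_eq_of_mem_normalizer hm, conj_smul_zpowers]
      refine sup_le le_sup_left (zpowers_le.2 ?_)
      obtain ⟨a', ha', b', hb', v, hv, e⟩ :=
        h.dec (conj_mem_of_mem_normalizer (s.normP l.hV hm) hab)
      have h5 : ⁅a', b'⁆ ≠ 1 := by
        rw [← h.sq_eq ha' hb' hv, ← e, conj_mul, Ne, conj_eq_one_iff, ← mul_one (a * b),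
          h.sq_eq ha hb U.one_mem]
        exact hne
      rw [e, h3 l.hA a' ha' a ha (fun e => h5 (by simp [e])) ha1,
        h3 h.tri.r.hA b' hb' b hb (fun e => h5 (by simp [e])) hb1]
      exact mul_mem (mem_sup_right (mem_zpowers _)) (mem_sup_left hv)))
  have h5 : a * b ∈ U := h4 ▸ mem_sup_right (mem_zpowers _)
  have h6 := l.cm_AV ha h5
  rw [s.cm_mul_right l.hV (l.le ha) (l.le ha) (h.tri.r.le hb), commutatorElement_self,
    one_mul] at h6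
  exact hne h6

end Small

/-- An involution `t` acting on `P U` in the way forced by failure of symmetry. -/
structure Act (P : Subgroup G → Subgroup G) (U : Subgroup G) (t : G) : Prop where
  sq : t * t = 1
  cU : ∀ v ∈ U, ⁅t, v⁆ = 1
  nmem : t ∉ U
  one : ∀ x ∈ P U, ⁅x, t⁆ ∈ U → ⁅x, t⁆ = 1
  cj : ∀ x ∈ P U, ∀ y ∈ P U, ⁅y, t⁆ = 1 → ⁅⁅x, t⁆, y⁆ = 1

namespace Small

variable (h : Small S P U A B) (ht : Act P U t)
include h ht

theorem conj_mem (hx : x ∈ P U) : t * x * t⁻¹ ∈ P U :=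
  conj_mem_of_mem_normalizer (h.tri.l.sys.normP h.tri.l.hV (mem_norm_of_cm ht.cU)) hx

omit h in
theorem conj_nmem (hx : x ∉ U) : t * x * t⁻¹ ∉ U := fun e => hx (by
  simpa [mul_assoc] using inv_conj_mem_of_mem_normalizer (mem_norm_of_cm ht.cU) e)

theorem conj_in (ha : a ∈ A) (h1 : a ≠ 1) (e : In U B (t * a * t⁻¹)) (h' : Small S P U B A)
    (hx : In U A x) : In U B (t * x * t⁻¹) :=
  h'.in_of_comm e (conj_nmem ht fun e => h1 (h.tri.l.eq_one ha e))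
    (h.conj_mem ht (h.tri.l.in_mem hx)) (by
      rw [← conjugate_commutatorElement, h.tri.l.in_comm (in_of_mem ha) hx]; simp)

theorem exists_fixed (ha : a ∈ A) (h1 : a ≠ 1) (e : In U A (t * a * t⁻¹)) :
    ∃ x, In U A x ∧ x ∉ U ∧ ⁅x, t⁆ = 1 := by
  have l := h.tri.l
  have h2 : ⁅a, t⁆ = a * (t * a * t⁻¹) := by
    rw [commutatorElement_def, l.sys.inv_eq l.hA ha]; group
  have h3 : In U A ⁅a, t⁆ := h2 ▸ l.in_mul (in_of_mem ha) e
  by_cases h4 : ⁅a, t⁆ ∈ U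
  · exact ⟨a, in_of_mem ha, fun e => h1 (l.eq_one ha e), ht.one a (l.le ha) h4⟩
  refine ⟨_, h3, h4, ?_⟩
  rw [← l.in_sq h3]
  have e1 := inv_eq_of_mul_eq_one_right ht.sq
  simp only [commutatorElement_def, mul_inv_rev, inv_inv, e1, mul_assoc, ht.sq, mul_one]

theorem conj_in_other (ha : a ∈ A) (h1 : a ≠ 1) : In U B (t * a * t⁻¹) := by
  have l := h.tri.l
  have r := h.tri.r
  have hsq : ∀ {X x}, Arr S P U X → x ∈ X → t * x * t⁻¹ * (t * x * t⁻¹) = 1 := fun k hx => by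
    rw [conj_mul, k.sys.sq k.hA hx]; simp
  refine (h.invol (h.conj_mem ht (l.le ha)) (hsq l ha)).resolve_left fun e => ?_
  obtain ⟨b, hb, h2⟩ := r.exists_ne_one
  have e' : In U B (t * b * t⁻¹) := by
    refine (h.invol (h.conj_mem ht (r.le hb)) (hsq r hb)).resolve_left fun e' => ?_
    have h3 := h.in_of_comm e (conj_nmem ht fun e => h1 (l.eq_one ha e))
      (h.conj_mem ht (l.in_mem e')) (by
        rw [← conjugate_commutatorElement, l.in_comm (in_of_mem ha) e']; simp)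
    rw [show t * (t * b * t⁻¹) * t⁻¹ = t * t * b * (t * t)⁻¹ by group, ht.sq] at h3
    exact h2 (r.eq_one hb (h.tri.in_in (by simpa using h3) (in_of_mem hb)))
  obtain ⟨x, hx1, hx2, hx3⟩ := h.exists_fixed ht ha h1 e
  obtain ⟨y, hy1, hy2, hy3⟩ := h.symm.exists_fixed ht hb h2 e'
  refine ht.nmem (l.sys.cP l.hV (mem_norm_of_cm ht.cU) fun z hz => cm_symm (ht.one z hz ?_))
  have h4 : ⁅z, t⁆ ∈ P U := cm_mem_left hz (l.sys.normP l.hV (mem_norm_of_cm ht.cU))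
  exact h.tri.in_in (h.in_of_comm hx1 hx2 h4 (cm_symm (ht.cj z hz x (l.in_mem hx1) hx3)))
    (h.symm.in_of_comm hy1 hy2 h4 (cm_symm (ht.cj z hz y (r.in_mem hy1) hy3)))

end Small

theorem Small.false_of_acts (h : Small S P U A B) (h1 : Act P U c) (h2 : Act P U d)
    (h3 : Act P U (c * d)) : False := by
  obtain ⟨a, ha, e⟩ := h.tri.l.exists_ne_one
  obtain ⟨b, hb, e'⟩ := h.tri.r.exists_ne_one
  have h4 := h.symm.conj_in h1 hb e' (h.symm.conj_in_other h1 hb e') h (h.conj_in_other h2 ha e)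
  have h5 := h.conj_in_other h3 ha e
  rw [show c * (d * a * d⁻¹) * c⁻¹ = c * d * a * (c * d)⁻¹ by group] at h4
  exact Small.conj_nmem h3 (fun k => e (h.tri.l.eq_one ha k)) (h.tri.in_in h4 h5)

theorem Tri.le_of_cm (h : Tri S P V A B) (hv : v ∈ V) (hx : x ∈ P A) (h1 : ⁅x, v⁆ ∈ A)
    (h2 : ⁅x, v⁆ ≠ 1) : V ≤ P A := by
  have l := h.l
  have s := l.sys
  have hv1 : v ≠ 1 := fun e => h2 (by simp [e])
  obtain ⟨b, hb, e⟩ := h.exists_b h1 h2 hv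
  have e1 : x * v * x⁻¹ = b * ⁅x, v⁆ * b⁻¹ := by
    rw [conj_eq_cm, conj_eq_cm b, e, s.cent l.hV (l.le h1) hv]
  have e2 : MulAut.conj x • V = MulAut.conj b • A :=
    s.ti (s.conjS l.hV x) (s.conjS l.hA b) (conj_mem_conj_smul x hv)
      (e1 ▸ conj_mem_conj_smul b h1) (by simpa using hv1)
  have h3 : ∀ a ∈ A, b⁻¹ * a * b ∈ P A := fun a ha => by
    rw [← mem_conj_smul, ← s.conjP l.hA, ← e2, s.conjP l.hV, ← s.conj_cent l.hA hx ha]
    exact conj_mem_conj_smul x (l.le ha)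
  intro w hw
  obtain ⟨a, ha, rfl⟩ := l.surj ((P V).inv_mem (h.r.le hb)) h1
    (by rwa [s.cm_inv_left l.hV (h.r.le hb) (l.le h1), e]) hw
  rw [commutatorElement_def, inv_inv]
  exact (P A).mul_mem (h3 a ha) ((P A).inv_mem (s.le l.hA ha))

/-- The situation in which symmetry fails. -/
structure Bad (S : Set (Subgroup G)) (P : Subgroup G → Subgroup G) (V A B : Subgroup G) :
    Prop where
  tri : Tri S P V A B
  one : ∀ {v x}, v ∈ V → x ∈ P A → ⁅x, v⁆ ∈ A → ⁅x, v⁆ = 1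

namespace Bad

variable (h : Bad S P V A B)
include h

theorem inf_eq (hv : v ∈ V) (h1 : v ∈ P A) : v = 1 :=
  h.tri.l.eq_one (h.tri.l.sys.cP h.tri.l.hA (h.tri.l.V_le_norm hv) fun _ hy =>
    cm_symm (h.one hv hy (h.tri.l.sys.comm h.tri.l.hA hy h1))) hv

theorem fix (hv : v ∈ V) (h1 : v ≠ 1) (hx : x ∈ P A) (e : ⁅x, v⁆ ∈ A) (hw : w ∈ V) :
    ⁅x, w⁆ = 1 :=
  have l := h.tri.l
  h.inf_eq (cm_mem_right (l.sys.norm_of_comm l.hV hv h1 (h.one hv hx e)) hw)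
    (cm_mem_left hx (l.sys.normP l.hA (l.V_le_norm hw)))

theorem cm_fc (hf : f ∈ P A) (hf' : ∀ v ∈ V, ⁅f, v⁆ = 1) (hc : c ∈ P V)
    (hc' : ∀ a ∈ A, ⁅c, a⁆ = 1) : ⁅c, f⁆ ∈ A := by
  have l := h.tri.l
  have s := l.sys
  have h1 : ⁅c, f⁆ ∈ P V := cm_mem_left hc (s.normP l.hV (mem_norm_of_cm hf'))
  have h2 : ⁅c, f⁆ ∈ P A := cm_mem_right (s.normP l.hA (mem_norm_of_cm hc')) hf
  obtain ⟨a, ha, e⟩ := h.tri.center_cent h1 fun d hd hd' =>
    h.inf_eq (s.comm l.hV h1 hd) (cm_mem_left h2 (s.normP l.hA (mem_norm_of_cm hd')))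
  have := h.inf_eq e ((P A).mul_mem ((P A).inv_mem (s.le l.hA ha)) h2)
  rwa [← inv_mul_eq_one.1 this]

theorem cm_cm (hf : f ∈ P A) (hf' : ∀ v ∈ V, ⁅f, v⁆ = 1) (hc : c ∈ P V)
    (hc' : ∀ a ∈ A, ⁅c, a⁆ = 1) (hx : x ∈ P A) : ⁅⁅x, c⁆, f⁆ = 1 := by
  have l := h.tri.l
  have s := l.sys
  have h1 : c * x⁻¹ * c⁻¹ ∈ P A :=
    conj_mem_of_mem_normalizer (s.normP l.hA (mem_norm_of_cm hc')) ((P A).inv_mem hx)
  have h2 := h.cm_fc hf hf' hc hc'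
  have h3 : ⁅c * x⁻¹ * c⁻¹, f⁆ = ⁅x⁻¹, f⁆ := by
    have h4 := conjugate_commutatorElement x⁻¹ f c
    rw [conj_eq_cm, hc' _ (s.comm l.hA ((P A).inv_mem hx) hf), one_mul, conj_eq_cm c f,
      s.cm_mul_right l.hA h1 (s.le l.hA h2) hf, s.cm_cent l.hA h1 h2, one_mul] at h4
    exact h4.symm
  rw [show ⁅x, c⁆ = x * (c * x⁻¹ * c⁻¹) by rw [commutatorElement_def]; group,
    s.cm_mul_left l.hA hx h1 hf, h3, s.cm_inv_left l.hA hx hf, s.sq l.hA (s.comm l.hA hx hf)]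

theorem fix_of_cent (hz : z ∈ P A)
    (hz' : ∀ f ∈ P A, (∀ v ∈ V, ⁅f, v⁆ = 1) → ⁅z, f⁆ = 1) (hw : w ∈ V) : ⁅z, w⁆ = 1 := by
  have l := h.tri.l
  have s := l.sys
  obtain ⟨v, hv, h1⟩ := l.exists_ne_one'
  have hn := s.normP l.hA (l.V_le_norm hv)
  have e1 := s.inv_eq l.hV hv
  have e2 := s.sq l.hV hv
  refine h.fix hv h1 hz (s.cP l.hA (s.P_le_norm l.hA (cm_mem_left hz hn)) fun y hy => ?_) hw
  have h2 : ⁅y, v⁆ ∈ P A := cm_mem_left hy hn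
  have h3 : ⁅z, ⁅y, v⁆⁆ = 1 := hz' _ h2 fun w hw => h.fix hv h1 h2 (by
    have : ⁅⁅y, v⁆, v⁆ = ⁅y, v⁆ * ⁅y, v⁆ := by
      simp only [commutatorElement_def, mul_inv_rev, inv_inv, e1, mul_assoc, e2, mul_one]
    exact this ▸ s.sqP l.hA h2) hw
  have h4 : v * y⁻¹ * v⁻¹ ∈ P A := conj_mem_of_mem_normalizer hn ((P A).inv_mem hy)
  have h5 : v * z⁻¹ * v⁻¹ ∈ P A := conj_mem_of_mem_normalizer hn ((P A).inv_mem hz)
  have h6 : ∀ {a}, a ∈ A → v * a * v⁻¹ = a := fun ha => by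
    rw [conj_eq_cm, cm_symm (l.cm_AV ha hv), one_mul]
  rw [show ⁅y, v⁆ = y * (v * y⁻¹ * v⁻¹) by rw [commutatorElement_def]; group,
    s.cm_mul_right l.hA hz hy h4] at h3
  rw [show ⁅z, v⁆ = z * (v * z⁻¹ * v⁻¹) by rw [commutatorElement_def]; group,
    s.cm_mul_left l.hA hz h5 hy, ← h3, ← h6 (s.comm l.hA hz h4), conjugate_commutatorElement,
    show v * (v * y⁻¹ * v⁻¹) * v⁻¹ = v * v * y⁻¹ * (v * v)⁻¹ by group, e2, one_mul, inv_one,
    mul_one, show v * z⁻¹ * v⁻¹ = (v * z * v⁻¹)⁻¹ by group]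
  have h7 : v * z * v⁻¹ ∈ P A := conj_mem_of_mem_normalizer hn hz
  rw [s.cm_inv_left l.hA h7 hy, s.cm_swap l.hA h7 ((P A).inv_mem hy), s.cm_inv_left l.hA hy h7,
    s.cm_swap l.hA hy h7]

theorem cm_fix (hc : c ∈ P V) (hc' : ∀ a ∈ A, ⁅c, a⁆ = 1) (hx : x ∈ P A) (hw : w ∈ V) :
    ⁅⁅x, c⁆, w⁆ = 1 :=
  h.fix_of_cent (cm_mem_left hx (h.tri.l.sys.normP h.tri.l.hA (mem_norm_of_cm hc')))
    (fun _ hf hf' => h.cm_cm hf hf' hc hc' hx) hw

theorem cent_comm (hc : c ∈ P V) (hc' : ∀ a ∈ A, ⁅c, a⁆ = 1) (hd : d ∈ P V)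
    (hd' : ∀ a ∈ A, ⁅d, a⁆ = 1) : ⁅c, d⁆ = 1 := by
  have l := h.tri.l
  have s := l.sys
  have he := s.comm l.hV hc hd
  have nc := s.normP l.hA (mem_norm_of_cm hc')
  have nd := s.normP l.hA (mem_norm_of_cm hd')
  refine l.eq_one (s.cP l.hA (l.V_le_norm he) fun y hy => cm_symm (h.one he hy ?_)) he
  obtain ⟨x, hx, rfl⟩ : ∃ x ∈ P A, y = d * (c * x * c⁻¹) * d⁻¹ :=
    ⟨c⁻¹ * (d⁻¹ * y * d) * c, inv_conj_mem_of_mem_normalizer nc
      (inv_conj_mem_of_mem_normalizer nd hy), by group⟩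
  have f1 := cm_mem_left hx nc
  have f2 := cm_mem_left hx nd
  have a1 := h.cm_fc f1 (fun w hw => h.cm_fix hc hc' hx hw) hd hd'
  have a2 := h.cm_fc f2 (fun w hw => h.cm_fix hd hd' hx hw) hc hc'
  have e0 := cm_iff.1 (h.cm_cm f2 (fun w hw => h.cm_fix hd hd' hx hw) hc hc' hx)
  have e : ⁅d * (c * x * c⁻¹) * d⁻¹, ⁅c, d⁆⁆ = (⁅d, ⁅x, c⁆⁆ * ⁅x, c⁆)⁻¹ *
      (⁅x, d⁆⁻¹ * ⁅x, c⁆) * (⁅c, ⁅x, d⁆⁆ * ⁅x, d⁆) := by
    simp only [commutatorElement_def]; group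
  rw [e, ← s.cent l.hA f2 a2, mul_inv_rev]
  generalize ⁅x, c⁆ = p at *
  generalize ⁅x, d⁆ = q at *
  have e3 : p⁻¹ * ⁅d, p⁆⁻¹ * (q⁻¹ * p) * (q * ⁅c, q⁆) =
      p⁻¹ * ⁅d, p⁆⁻¹ * p * ⁅c, q⁆ := by
    rw [mul_assoc, mul_assoc q⁻¹, ← mul_assoc p, e0]; group
  rw [e3]
  exact A.mul_mem (inv_conj_mem_of_mem_normalizer (s.P_le_norm l.hA f1) (A.inv_mem a1)) a2

theorem small : Small S P V B A := ⟨h.tri.symm, fun {x} hx => by
  obtain ⟨b, hb, e⟩ := h.tri.decomp hx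
  have h1 := (P V).mul_mem ((P V).inv_mem (h.tri.r.le hb)) hx
  obtain ⟨a, ha, e'⟩ := h.tri.center_cent h1 fun c hc hc' => h.cent_comm h1 e hc hc'
  exact ⟨b, hb, a, ha, _, e', by group⟩⟩

theorem act (hv : v ∈ V) (h1 : v ≠ 1) : Act P A v where
  sq := h.tri.l.sys.sq h.tri.l.hV hv
  cU := fun _ ha => cm_symm (h.tri.l.cm_AV ha hv)
  nmem := fun e => h1 (h.tri.l.eq_one e hv)
  one := fun _ hx e => h.one hv hx e
  cj := fun _ hx _ hy e => h.cm_cm hy (fun _ hw => h.fix hv h1 hy (e ▸ A.one_mem) hw)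
    (h.tri.l.sys.le h.tri.l.hV hv) (fun _ ha => cm_symm (h.tri.l.cm_AV ha hv)) hx

theorem false : False := by
  have l := h.tri.l
  by_cases h2 : ∀ x ∈ V, ∀ y ∈ V, x ≠ 1 → y ≠ 1 → x = y
  · exact h.small.false_of_two h2
  push Not at h2
  obtain ⟨x, hx, y, hy, h1, h2, h3⟩ := h2
  obtain ⟨g, e⟩ := l.sys.trans l.hV l.hA
  have h4 : Small S P A (MulAut.conj g • B) (MulAut.conj g • A) := by
    refine ⟨by simpa only [← e] using h.small.tri.conj g, fun {z} hz => ?_⟩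
    rw [e, l.sys.conjP l.hV] at hz
    obtain ⟨z, hz', rfl⟩ := mem_conj_smul_iff_exists.1 hz
    obtain ⟨b, hb, a, ha, v, hv, rfl⟩ := h.small.dec hz'
    exact ⟨_, conj_mem_conj_smul g hb, _, conj_mem_conj_smul g ha, _,
      e ▸ conj_mem_conj_smul g hv, by group⟩
  exact h4.false_of_acts (h.act hx h1) (h.act hy h2) (h.act (V.mul_mem hx hy) fun e =>
    h3 (by rw [eq_inv_of_mul_eq_one_left e, l.sys.inv_eq l.hV hy]))

end Bad

theorem Arr.symm (h : Arr S P V A) : Arr S P A V := by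
  refine ⟨h.sys, h.hA, h.hV, h.ne.symm, ?_⟩
  obtain ⟨B, hB⟩ := h.exists_tri
  by_contra hc
  exact Bad.false ⟨hB, fun hv hx e => by_contra fun e' => hc (hB.le_of_cm hv hx e e')⟩

end Cfsg.Lib.TISp
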